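import Mathlib
import Cfsg.Agent.JW.Comm
import Cfsg.Agent.H37.ZMain

/-!
# `JW.Hyp` implies PSL(2,q)
-/

set_option autoImplicit false

namespace Cfsg.Agent.JW

open Subgroup MulAction Pointwise

section

variable {G : Type*} [Group G] [Finite G] {p q E O : ℕ}

theorem Hyp.cent_eq (h : Hyp G p q E O) {P : Sylow p G} {x : G} (hx : x ∈ P) (hx1 : x ≠ 1) :
    centralizer ({x} : Set G) = P :=
  h.cent_of_zz (mem_zz.2 ⟨hx, fun y hy => h.comm P x hx y hy⟩) hx1

theorem Hyp.mem_of_fix (h : Hyp G p q E O) {P Q : Sylow p G} {x : G} (hx : x ∈ P) (hQ : x • Q = Q) :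
    x ∈ Q := by
  haveI := Fact.mk h.pp
  have h1 : x ∈ (P : Subgroup G) ⊓ normalizer Q :=
    ⟨hx, Sylow.smul_eq_iff_mem_normalizer.1 hQ⟩
  rw [IsPGroup.inf_normalizer_sylow P.isPGroup' Q] at h1
  exact h1.2

theorem Hyp.eq_of_fix (h : Hyp G p q E O) {P Q : Sylow p G} {x : G} (hx : x ∈ P) (hx1 : x ≠ 1)
    (hQ : x • Q = Q) : Q = P := by
  have h1 := h.mem_of_fix hx hQ
  apply Sylow.ext
  rw [← h.cent_eq hx hx1, ← h.cent_eq h1 hx1]

theorem Hyp.card_ne (h : Hyp G p q E O) (P : Sylow p G) :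
    Nat.card {x : G // x ∈ zz P ∧ x ≠ 1} + 1 = q := by
  have h1 := card_ne_one (P : Subgroup G)
  have h2 := h.card_syl P
  have h3 : Nat.card {x : G // x ∈ zz P ∧ x ≠ 1} = Nat.card {x : G // x ∈ (P : Subgroup G) ∧ x ≠ 1} := by
    apply Nat.card_congr
    apply Equiv.subtypeEquivRight
    intro x
    constructor
    · rintro ⟨h4, h5⟩
      exact ⟨(mem_zz.1 h4).1, h5⟩
    · rintro ⟨h4, h5⟩
      exact ⟨mem_zz.2 ⟨h4, fun y hy => h.comm P x h4 y hy⟩, h5⟩
  rw [h3, h1]
  exact h2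

theorem Hyp.card_points (h : Hyp G p q E O) (P : Sylow p G) : Nat.card (Sylow p G) = q + 1 := by
  have h1 := h.card_total P
  have h2 := h.card_ne P
  have h3 := h.sq
  have h4 := h.q5
  set w := Nat.card {x : G // x ∈ zz P ∧ x ≠ 1} with hw
  have h5 : Nat.card (Sylow p G) * w + 1 = (w + 1) ^ 2 := by rw [h1, h3, h2]
  have h6 : Nat.card (Sylow p G) * w = (w + 2) * w := by nlinarith
  have h7 : 0 < w := by omega
  have h8 := Nat.eq_of_mul_eq_mul_right h7 h6
  omega

theorem Hyp.k_eq (h : Hyp G p q E O) (P : Sylow p G) :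
    ∃ k, 2 * k + 1 = q ∧ Nat.card (normalizer ((P : Subgroup G) : Set G)) = q * k := by
  obtain ⟨k, -, hk, -, hw⟩ := h.exists_k P
  have h2 := h.card_ne P
  rw [hw] at h2
  exact ⟨k, h2, hk⟩

/-- `P` is regular on the other points -/
theorem Hyp.reg (h : Hyp G p q E O) (P : Sylow p G) {Q R : Sylow p G} (hQ : Q ≠ P) (hR : R ≠ P) :
    ∃! x : (P : Subgroup G), (x : G) • Q = R := by
  classical
  haveI := Fact.mk h.pp
  haveI : Fintype (Sylow p G) := Fintype.ofFinite _
  have hfix : ∀ x ∈ P, x • P = P := fun x hx =>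
    Sylow.smul_eq_iff_mem_normalizer.2 (Subgroup.le_normalizer hx)
  let f : ↥(P : Subgroup G) → {S : Sylow p G // S ≠ P} := fun x => ⟨(x : G) • Q, fun h1 => hQ
    (smul_left_cancel _ (h1.trans (hfix x x.2).symm))⟩
  have hinj : Function.Injective f := by
    intro x y hxy
    have h1 : (x : G) • Q = (y : G) • Q := congrArg Subtype.val hxy
    by_contra hne
    have h2 : ((y : G)⁻¹ * (x : G)) • Q = Q := by rw [mul_smul, h1, inv_smul_smul]
    have h3 : (y : G)⁻¹ * (x : G) ≠ 1 := by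
      intro h4
      rw [inv_mul_eq_one] at h4
      exact hne (Subtype.ext h4.symm)
    exact hQ (h.eq_of_fix (P := P) (P.mul_mem (P.inv_mem y.2) x.2) h3 h2)
  have hcard : Nat.card (P : Subgroup G) = Nat.card {S : Sylow p G // S ≠ P} := by
    rw [Nat.card_eq_fintype_card (α := {S : Sylow p G // S ≠ P}), Fintype.card_subtype_compl,
      Fintype.card_subtype_eq, ← Nat.card_eq_fintype_card, h.card_points P]
    exact h.card_syl P
  have hbij : Function.Bijective f := (Nat.bijective_iff_injective_and_card f).2 ⟨hinj, hcard⟩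
  obtain ⟨x, hx, hu⟩ := hbij.existsUnique ⟨R, hR⟩
  refine ⟨x, congrArg Subtype.val hx, fun y hy => hu y (Subtype.ext hy)⟩

theorem Hyp.fix_self {P : Sylow p G} {x : G} (hx : x ∈ P) : x • P = P :=
  Sylow.smul_eq_iff_mem_normalizer.2 (Subgroup.le_normalizer hx)

/-- only the identity fixes three points -/
theorem Hyp.three (h : Hyp G p q E O) {P Q R : Sylow p G} (hPQ : P ≠ Q) (hQR : Q ≠ R) (hPR : P ≠ R)
    {g : G} (h1 : g • P = P) (h2 : g • Q = Q) (h3 : g • R = R) : g = 1 := by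
  obtain ⟨⟨x, hx⟩, hxQ, -⟩ := h.reg P hPQ.symm hPR.symm
  simp only at hxQ
  have hx1 : x ≠ 1 := by
    rintro rfl
    rw [one_smul] at hxQ
    exact hQR hxQ
  have hgx : g * x * g⁻¹ ∈ P := by
    rw [← h1, mem_smul]
    have h9 : g⁻¹ * (g * x * g⁻¹) * g = x := by group
    rw [h9]
    exact hx
  have h4 : (g * x * g⁻¹) • Q = R := by
    have h5 : g⁻¹ • Q = Q := by
      rw [inv_smul_eq_iff, h2]
    rw [mul_smul, h5, mul_smul, hxQ, h3]
  have h6 : g * x * g⁻¹ = x := by
    have := (h.reg P hPQ.symm hPR.symm).unique (y₁ := ⟨g * x * g⁻¹, hgx⟩) (y₂ := ⟨x, hx⟩) h4 hxQ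
    exact congrArg Subtype.val this
  have h7 : g ∈ centralizer ({x} : Set G) := by
    rw [Subgroup.mem_centralizer_singleton_iff]
    rw [mul_inv_eq_iff_eq_mul] at h6
    exact h6
  rw [h.cent_eq hx hx1] at h7
  by_contra hg
  exact hPQ (h.eq_of_fix (P := P) h7 hg h2).symm

theorem Hyp.exists_ne (h : Hyp G p q E O) (P : Sylow p G) : ∃ Q : Sylow p G, Q ≠ P := by
  haveI := Fact.mk h.pp
  haveI : Nontrivial (Sylow p G) := by
    rw [← Finite.one_lt_card_iff_nontrivial, h.card_points P]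
    have := h.q5
    omega
  exact _root_.exists_ne P

theorem Hyp.card_stab2 (h : Hyp G p q E O) {P Q : Sylow p G} (hPQ : P ≠ Q) {k : ℕ} (hk : 2 * k + 1 = q) :
    Nat.card (H34.stab2 G P Q) = k := by
  haveI := Fact.mk h.pp
  obtain ⟨k', hk', hN⟩ := h.k_eq P
  have hkk : k' = k := by omega
  subst hkk
  have hq0 : 0 < q := by have := h.q5; omega
  apply Nat.eq_of_mul_eq_mul_left hq0
  rw [← hN]
  have h1 : Nat.card (P : Subgroup G) * Nat.card (H34.stab2 G P Q) =
      Nat.card (normalizer ((P : Subgroup G) : Set G)) := by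
    rw [← Nat.card_prod]
    have hmem : ∀ z : ↥(P : Subgroup G) × ↥(H34.stab2 G P Q), (z.1 : G) * (z.2 : G) ∈
        normalizer ((P : Subgroup G) : Set G) := by
      intro z
      apply Subgroup.mul_mem
      · exact Subgroup.le_normalizer z.1.2
      · exact Sylow.smul_eq_iff_mem_normalizer.1 (H34.mem_stab2.1 z.2.2).1
    apply Nat.card_congr
    refine Equiv.ofBijective (fun z => ⟨(z.1 : G) * (z.2 : G), hmem z⟩) ⟨?_, ?_⟩
    · rintro ⟨⟨x, hx⟩, ⟨g, hg⟩⟩ ⟨⟨x', hx'⟩, ⟨g', hg'⟩⟩ he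
      have he1 : x * g = x' * g' := congrArg Subtype.val he
      have hg1 := (H34.mem_stab2.1 hg)
      have hg2 := (H34.mem_stab2.1 hg')
      have h2 : x • Q = x' • Q := by
        have h3 : (x * g) • Q = (x' * g') • Q := by rw [he1]
        rw [mul_smul, mul_smul, hg1.2, hg2.2] at h3
        exact h3
      have hne : x' • Q ≠ P := by
        intro h3
        have h4 := Hyp.fix_self (P := P) hx'
        rw [← h4] at h3
        exact hPQ (smul_left_cancel _ h3).symm
      have h3 := (h.reg P hPQ.symm hne).unique (y₁ := ⟨x, hx⟩) (y₂ := ⟨x', hx'⟩) h2 rfl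
      have h4 : x = x' := congrArg Subtype.val h3
      subst h4
      have h5 := mul_left_cancel he1
      subst h5
      rfl
    · rintro ⟨g, hg⟩
      have hgP := Sylow.smul_eq_iff_mem_normalizer.2 hg
      have hne : g • Q ≠ P := by
        intro h3
        rw [← hgP] at h3
        exact hPQ (smul_left_cancel _ h3).symm
      obtain ⟨⟨x, hx⟩, hxQ, -⟩ := h.reg P hPQ.symm hne
      simp only at hxQ
      have hm : x⁻¹ * g ∈ H34.stab2 G P Q := by
        rw [H34.mem_stab2]
        constructor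
        · rw [mul_smul, hgP, inv_smul_eq_iff, Hyp.fix_self hx]
        · rw [mul_smul, ← hxQ, inv_smul_smul]
      refine ⟨⟨⟨x, hx⟩, ⟨x⁻¹ * g, hm⟩⟩, ?_⟩
      apply Subtype.ext
      show x * (x⁻¹ * g) = g
      group
  rw [← h1]
  congr 1
  exact (h.card_syl P).symm

/-- no regular normal subgroup -/
theorem Hyp.no_reg (h : Hyp G p q E O) (N : Subgroup G) (hN : N.Normal)
    (hT : MulAction.IsPretransitive N (Sylow p G)) (hS : ∀ P : Sylow p G, MulAction.stabilizer N P = ⊥) :
    False := by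
  classical
  haveI := Fact.mk h.pp
  haveI := hN
  obtain ⟨P⟩ : Nonempty (Sylow p G) := inferInstance
  obtain ⟨Q, hQP⟩ := h.exists_ne P
  have hq5 := h.q5
  have hcN : Nat.card N = q + 1 := by
    have h1 := Subgroup.card_mul_index (MulAction.stabilizer N P)
    rw [hS P, Subgroup.card_bot, one_mul, ← hS P, MulAction.index_stabilizer,
      MulAction.orbit_eq_univ] at h1
    rw [← h1, ← h.card_points P]
    exact Nat.card_congr (Equiv.Set.univ _)
  -- an involution of `N`
  have hqodd : Odd q := by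
    rcases h.EO with ⟨h4, -⟩ | ⟨-, h4⟩
    · exact ⟨E, h4.symm⟩
    · exact ⟨O, h4.symm⟩
  have h2 : 2 ∣ Nat.card N := by
    rw [hcN]
    exact even_iff_two_dvd.1 (by obtain ⟨m, hm⟩ := hqodd; exact ⟨m + 1, by omega⟩)
  obtain ⟨u0, hu0⟩ := exists_prime_orderOf_dvd_card' 2 h2
  have hu1 : (u0 : G) ≠ 1 := by
    intro h3
    have : u0 = 1 := Subtype.ext h3
    subst this
    simp at hu0
  have hu2 : (u0 : G) ^ 2 = 1 := by
    have h3 : u0 ^ 2 = 1 := by rw [← hu0]; exact pow_orderOf_eq_one _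
    exact congrArg Subtype.val h3
  -- all nonidentity elements of `N` are conjugate to `u0`
  have hconj : ∀ u ∈ N, u ≠ 1 → u ^ 2 = 1 := by
    let f : ↥(P : Subgroup G) → {u : G // u ∈ N ∧ u ≠ 1} := fun x =>
      ⟨(x : G) * u0 * (x : G)⁻¹, hN.conj_mem u0 u0.2 x, fun h3 => hu1 (by
        have : (u0 : G) = (x : G)⁻¹ * ((x : G) * u0 * (x : G)⁻¹) * x := by group
        rw [this, h3]; group)⟩
    have hinj : Function.Injective f := by
      intro x y hxy
      have h3 : (x : G) * u0 * (x : G)⁻¹ = (y : G) * u0 * (y : G)⁻¹ := congrArg Subtype.val hxy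
      by_contra hne
      have h4 : (y : G)⁻¹ * (x : G) ≠ 1 := by
        intro h5
        rw [inv_mul_eq_one] at h5
        exact hne (Subtype.ext h5.symm)
      have h5 : (u0 : G) ∈ centralizer ({(y : G)⁻¹ * (x : G)} : Set G) := by
        rw [Subgroup.mem_centralizer_singleton_iff]
        calc (u0 : G) * ((y : G)⁻¹ * x) = (y : G)⁻¹ * ((y : G) * u0 * (y : G)⁻¹) * x := by group
          _ = (y : G)⁻¹ * ((x : G) * u0 * (x : G)⁻¹) * x := by rw [h3]
          _ = (y : G)⁻¹ * x * u0 := by group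
      rw [h.cent_eq (P := P) (P.mul_mem (P.inv_mem y.2) x.2) h4] at h5
      have h6 := Hyp.fix_self (P := P) h5
      have h7 : u0 ∈ MulAction.stabilizer N P := h6
      rw [hS P, Subgroup.mem_bot] at h7
      exact hu1 (congrArg Subtype.val h7)
    have hcard : Nat.card (P : Subgroup G) = Nat.card {u : G // u ∈ N ∧ u ≠ 1} := by
      have h3 := card_ne_one N
      rw [hcN] at h3
      have h4 := h.card_syl P
      rw [h4]
      omega
    have hbij : Function.Bijective f := (Nat.bijective_iff_injective_and_card f).2 ⟨hinj, hcard⟩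
    intro u hu hu1
    obtain ⟨x, hx⟩ := hbij.surjective ⟨u, hu, hu1⟩
    have h3 : (x : G) * u0 * (x : G)⁻¹ = u := congrArg Subtype.val hx
    rw [← h3, conj_pow, hu2]
    group
  -- so `q + 1` is a power of two
  have hpow : IsPGroup 2 N := by
    intro u
    refine ⟨1, ?_⟩
    rw [pow_one]
    by_cases hu : (u : G) = 1
    · apply Subtype.ext
      rw [Subgroup.coe_pow, hu]; simp
    · apply Subtype.ext
      exact hconj u u.2 hu
  haveI : Fact (Nat.Prime 2) := ⟨Nat.prime_two⟩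
  obtain ⟨j, hj⟩ := IsPGroup.iff_card.1 hpow
  rw [hcN] at hj
  have hj3 : 2 ≤ j := by
    by_contra hc
    push Not at hc
    interval_cases j <;> omega
  have h4 : 4 ∣ q + 1 := by
    rw [hj]
    exact (pow_dvd_pow 2 hj3)
  have hEO : 2 * E = q + 1 ∧ 2 * O + 1 = q := by
    rcases h.EO with ⟨h5, h6⟩ | h5
    · exfalso
      have h7 := h.odO
      obtain ⟨m, hm⟩ := h7
      omega
    · exact h5
  -- a nonidentity element fixing two points
  have hk := h.card_stab2 (k := O) hQP.symm hEO.2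
  have hO1 : O ≠ 1 := by omega
  obtain ⟨r, hr, hrO⟩ := Nat.exists_prime_and_dvd hO1
  haveI := Fact.mk hr
  rw [← hk] at hrO
  obtain ⟨g, hg⟩ := exists_prime_orderOf_dvd_card' r hrO
  rw [hk] at hrO
  have hgs := H34.mem_stab2.1 g.2
  have hgo : orderOf (g : G) = r := by rw [← hg]; exact Subgroup.orderOf_coe g
  obtain ⟨u, hu⟩ := MulAction.exists_smul_eq N P Q
  have hu' : (u : G) • P = Q := hu
  have hune : (u : G) ≠ 1 := by
    intro h5
    rw [h5, one_smul] at hu'
    exact hQP hu'.symm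
  have hcomm : Commute (g : G) (u : G) := by
    have h5 : (u : G)⁻¹ * ((g : G) * u * (g : G)⁻¹) ∈ N :=
      N.mul_mem (N.inv_mem u.2) (hN.conj_mem u u.2 g)
    have h6 : ((u : G)⁻¹ * ((g : G) * u * (g : G)⁻¹)) • P = P := by
      have h7 : (g : G)⁻¹ • P = P := by rw [inv_smul_eq_iff, hgs.1]
      rw [mul_smul, mul_smul, h7, mul_smul, hu', hgs.2, ← hu', inv_smul_smul]
    have h7 : (⟨_, h5⟩ : N) ∈ MulAction.stabilizer N P := h6
    rw [hS P, Subgroup.mem_bot] at h7
    have h8 : (u : G)⁻¹ * ((g : G) * u * (g : G)⁻¹) = 1 := congrArg Subtype.val h7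
    rw [inv_mul_eq_one] at h8
    rw [commute_iff_eq]
    calc (g : G) * u = ((g : G) * u * (g : G)⁻¹) * g := by group
      _ = u * g := by rw [← h8]
  have huo : orderOf (u : G) = 2 := orderOf_eq_prime (hconj u u.2 hune) hune
  have hr2 : r ≠ 2 := by
    rintro rfl
    have := h.odO
    exact (Nat.not_even_iff_odd.2 this) (even_iff_two_dvd.2 hrO)
  have h5 := hcomm.orderOf_mul_eq_mul_orderOf_of_coprime (by
    rw [hgo, huo, Nat.coprime_primes hr Nat.prime_two]; exact hr2)
  have h6 := h.ord2 ((g : G) * u) (by rw [h5, huo]; exact dvd_mul_left _ _)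
  rw [h5, hgo] at h6
  have h7 : r ∣ 2 ^ j := by
    rw [← hj, ← hEO.1]
    exact ((dvd_mul_right _ _).trans h6).mul_left 2
  exact hr2 ((Nat.prime_dvd_prime_iff_eq hr Nat.prime_two).1 (hr.dvd_of_dvd_pow h7))

theorem Hyp.zass (h : Hyp G p q E O) : Cfsg.IsZassenhausGroup G (Sylow p G) := by
  classical
  haveI := Fact.mk h.pp
  obtain ⟨P⟩ : Nonempty (Sylow p G) := inferInstance
  haveI : Fintype (Sylow p G) := Fintype.ofFinite _
  have hq5 := h.q5
  have hc := h.card_points P
  rw [Nat.card_eq_fintype_card] at hc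
  refine ⟨⟨?_⟩, ?_, ?_, ?_, ?_⟩
  · intro g g' hgg
    obtain ⟨a, b, c, hab, hac, hbc⟩ := Fintype.two_lt_card_iff.1 (show 2 < Fintype.card (Sylow p G) by omega)
    have h1 : ∀ S : Sylow p G, (g'⁻¹ * g) • S = S := fun S => by rw [mul_smul, hgg, inv_smul_smul]
    have h2 := h.three hab hbc hac (h1 a) (h1 b) (h1 c)
    rw [inv_mul_eq_one] at h2
    exact h2.symm
  · rw [MulAction.is_two_pretransitive_iff]
    intro a b c d hab hcd
    obtain ⟨g, hg⟩ := exists_smul a c
    have h1 : g • b ≠ c := by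
      rw [← hg]
      intro h2
      exact hab (smul_left_cancel _ h2).symm
    obtain ⟨x, hx, -⟩ := h.reg c h1 hcd.symm
    refine ⟨(x : G) * g, ?_, ?_⟩
    · rw [mul_smul, hg, Hyp.fix_self x.2]
    · rw [mul_smul, hx]
  · intro g a b c hab hbc hac h1 h2 h3
    exact h.three hab hbc hac h1 h2 h3
  · obtain ⟨Q, hQ⟩ := h.exists_ne P
    obtain ⟨k, hk, -⟩ := h.k_eq P
    have h1 := h.card_stab2 hQ.symm hk
    haveI : Nontrivial (H34.stab2 G P Q) := by
      rw [← Finite.one_lt_card_iff_nontrivial, h1]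
      omega
    obtain ⟨g, hg⟩ := _root_.exists_ne (1 : H34.stab2 G P Q)
    exact ⟨g, fun h2 => hg (Subtype.ext h2), P, Q, hQ.symm, (H34.mem_stab2.1 g.2).1,
      (H34.mem_stab2.1 g.2).2⟩
  · intro N hN hT
    by_contra hc
    push Not at hc
    exact h.no_reg N hN hT hc

/-- the identification -/
theorem Hyp.psl (h : Hyp G p q E O) : ∃ (K : Type) (_ : Field K) (_ : Fintype K), Nat.card K = q ∧
    Nonempty (G ≃* Matrix.ProjectiveSpecialLinearGroup (Fin 2) K) := by
  haveI := Fact.mk h.pp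
  obtain ⟨P⟩ : Nonempty (Sylow p G) := inferInstance
  obtain ⟨Q, hQ⟩ := h.exists_ne P
  have hker : H37.ZT.IsKer G P (P : Subgroup G) :=
    { le := fun x hx => Hyp.fix_self hx
      norm := by
        intro g hg u hu
        have h1 : g • P = P := hg
        show g * u * g⁻¹ ∈ P
        rw [← h1, mem_smul]
        have h2 : g⁻¹ * (g * u * g⁻¹) * g = u := by group
        rw [h2]
        exact hu
      reg := fun y z hy hz => h.reg P hy hz }
  obtain ⟨k, hk, -⟩ := h.k_eq P
  have h1 := h.card_stab2 hQ.symm hk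
  have h2 := h.card_points P
  have h5 := h.q5
  rcases H37.ZT.zass_abelian h.zass hQ.symm hker (fun x hx y hy => (h.comm P x hx y hy).symm) with h3 | ⟨-, K, iF, iFt, -, hc, he⟩
  · exfalso
    rw [h1, h2] at h3
    omega
  · refine ⟨K, iF, iFt, ?_, he⟩
    rw [h2] at hc
    omega

end

end Cfsg.Agent.JW
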